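import Cfsg.Agent.H59.Fit
import Cfsg.Agent.H69.Base
import Mathlib.GroupTheory.SpecificGroups.Dihedral
import Mathlib.GroupTheory.SpecificGroups.Alternating
import Mathlib.LinearAlgebra.Matrix.ProjectiveSpecialLinearGroup

/-! Vocabulary for the Gorenstein–Walter theorem (see `notes/GW_h7.md`). -/

set_option autoImplicit false

namespace Cfsg.Agent.H7.GW

open Subgroup Cfsg.Agent.H44 Cfsg.Agent.H59

universe u

/-- The conclusion of the theorem for a simple group. -/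
def Known (X : Type u) [Group X] : Prop :=
  (∃ (F : Type) (_ : Field F) (_ : Fintype F), Odd (Fintype.card F) ∧ 3 < Fintype.card F ∧
      Nonempty (X ≃* Matrix.ProjectiveSpecialLinearGroup (Fin 2) F)) ∨
    Nonempty (X ≃* alternatingGroup (Fin 7))

/-- The Sylow 2-subgroups are dihedral of order at least four. -/
def DihSyl (G : Type u) [Group G] : Prop :=
  ∃ (S : Sylow 2 G) (n : ℕ), 2 ≤ n ∧ Nonempty ((S : Subgroup G) ≃* DihedralGroup n)

/-- All involutions are conjugate. -/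
def OneClass (G : Type u) [Group G] : Prop :=
  ∀ a b : G, orderOf a = 2 → orderOf b = 2 → IsConj a b

/-- The standing hypothesis: a simple group with dihedral Sylow 2-subgroups all of whose proper
simple sections are known. -/
structure Hyp (G : Type u) [Group G] : Prop where
  simple : IsSimpleGroup G
  ncomm : ¬ IsMulCommutative G
  dih : DihSyl G
  kp : IsKProperWith Known G

variable {G : Type u} [Group G]

/-- `C_G(t)`. -/
abbrev Cen (t : G) : Subgroup G := centralizer ({t} : Set G)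
/-- `O(M)` in the ambient group. -/
abbrev Oo (M : Subgroup G) : Subgroup G := Opp 2 M
/-- `U = O(C_G(t))`. -/
abbrev Uo (t : G) : Subgroup G := Oo (Cen t)
/-- `F = F(O(C_G(t)))`. -/
abbrev Fo (t : G) : Subgroup G := Fof (Uo t)

/-- `s` is a reflection for `t`: an involution `≠ t` commuting with `t`. -/
def Refl (t s : G) : Prop := orderOf s = 2 ∧ s ≠ t ∧ s * t = t * s

/-- The number of reflections for `t` lying in `X`. -/
noncomputable def nRefl (t : G) (X : Subgroup G) : ℕ := {s | s ∈ X ∧ Refl t s}.ncard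

/-- The number of involutions of `X`. -/
noncomputable def nInv (X : Subgroup G) : ℕ := {s | s ∈ X ∧ orderOf s = 2}.ncard

/-- `s` inverts every element of `K`. -/
def Inverts (s : G) (K : Subgroup G) : Prop := ∀ y ∈ K, s * y * s⁻¹ = y⁻¹

/-- The standing hypothesis, with `C_G(t)` maximal and `O(C_G(t)) ≠ 1`. -/
structure HMax (t : G) : Prop where
  hyp : Hyp G
  inv : orderOf t = 2
  coatom : IsCoatom (Cen t)
  U_ne : Uo t ≠ ⊥

/-- The layer `E` of `M` is of type `L₂(q)`; `T` is the odd part of the torus of `E` centralised by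
the involution `t ∈ M` (inner or outer). -/
structure L2Tor (M : Subgroup G) (t : G) (T : Subgroup G) : Prop where
  le : T ≤ Eof M ⊓ Cen t
  cyc : IsCyclic T
  odd : Odd (Nat.card T)
  disj : T ⊓ Oo M = ⊥
  norm : M ⊓ Cen t ≤ normalizer (T : Set G)
  exRefl : ∃ s ∈ Eof M, Refl t s
  inverts : ∀ x ∈ M, Refl t x → Inverts x T
  nil : ∀ A : Subgroup G, A ≤ M ⊓ Cen t → Group.IsNilpotent A → Odd (Nat.card A) →
    M ⊓ Cen t ≤ normalizer (A : Set G) → A ≤ Oo M ⊔ T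
  solv : ∀ y ∈ T, y ≠ 1 → Group.IsSolvable ↥(Eof M ⊓ Cen y)

/-- The number of `E`-conjugates `e t e⁻¹` of `t` such that `⟨y, e y e⁻¹⟩` has odd order. -/
noncomputable def nBad (E : Subgroup G) (t y : G) : ℕ :=
  {u | ∃ e ∈ E, u = e * t * e⁻¹ ∧ Odd (Nat.card (closure ({y, e * y * e⁻¹} : Set G)))}.ncard

/-- Additional facts when `t` lies in the layer; `τ = nRefl t (Eof M) = (q ∓ 1) / 2`. -/
structure L2In (M : Subgroup G) (t : G) (T : Subgroup G) : Prop where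
  ti : ∀ y ∈ T, y ≠ 1 → ∀ e ∈ Eof M, Commute y (e * y * e⁻¹) → e ∈ Cen t
  two_mul_le : 2 * Nat.card T ≤ nRefl t (Eof M)
  nInv_eq : (nInv (Eof M) = (2 * nRefl t (Eof M) + 1) * (nRefl t (Eof M) + 1) ∧
      ∀ y ∈ T, y ≠ 1 → nBad (Eof M) t y ≤ 4 * nRefl t (Eof M) + 1) ∨
    (nInv (Eof M) = (2 * nRefl t (Eof M) - 1) * (nRefl t (Eof M) - 1) ∧
      ∀ y ∈ T, y ≠ 1 → nBad (Eof M) t y ≤ 1)
  outer : ∀ (X : Set G) (ω : ℕ), (∀ x ∈ X, x ∈ M ∧ x ∉ Eof M ∧ Refl t x ∧
      {d | d ∈ Oo M ∧ x * d * x⁻¹ = d⁻¹}.ncard ≤ ω) → X.ncard ≤ nRefl t (Eof M) * ω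

/-- The (weak) consequence of `E(M)/Z(E(M)) ≅ A₇` used when `C_G(t)` is maximal. -/
def A7Weak (M : Subgroup G) : Prop :=
  ∀ t ∈ M, orderOf t = 2 → ∃ s ∈ Eof M, Refl t s ∧ Oo (M ⊓ Cen t) ≤ Cen s

/-- Facts about a proper subgroup `M` with nontrivial layer. -/
structure LayerFacts (M : Subgroup G) : Prop where
  qs : QS (Eof M)
  cent : M ⊓ centralizer (Eof M : Set G) = Oo M
  perfect_le : ∀ P : Subgroup G, P ≤ M → ⁅P, P⁆ = P → P ≤ Eof M
  conj : ∀ a ∈ Eof M, ∀ b ∈ Eof M, orderOf a = 2 → orderOf b = 2 →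
    ∃ e ∈ Eof M, e * a * e⁻¹ = b
  type : A7Weak M ∨ ∀ t ∈ M, orderOf t = 2 → ∃ T, L2Tor M t T ∧ (t ∈ Eof M → L2In M t T)

/-- `M` is infected by `C_G(t)`. -/
structure Infected (t : G) (M : Subgroup G) : Prop where
  coatom : IsCoatom M
  ne : M ≠ Cen t
  mem : t ∈ M
  selfc : Fo t ⊓ centralizer ((Fo t ⊓ M : Subgroup G) : Set G) ≤ M

/-- `A₀ = F ∩ O(M)`. -/
abbrev A0 (t : G) (M : Subgroup G) : Subgroup G := Fo t ⊓ Oo M

/-- The family `𝓔`. -/
structure InE (t : G) (M : Subgroup G) : Prop where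
  inf : Infected t M
  E_ne : Eof M ≠ ⊥
  A0_ne : A0 t M ≠ ⊥

/-- Good members of `𝓔`. -/
structure Good (t : G) (M : Subgroup G) : Prop where
  inE : InE t M
  uniq : ∀ Y : Subgroup G, Y ≤ A0 t M → Y ≠ ⊥ → normalizer (Y : Set G) ≤ M

/-- The structure of a good subgroup `M` (notes, 3c). -/
structure GoodData (t : G) (M T : Subgroup G) : Prop where
  good : Good t M
  lf : LayerFacts M
  mem : t ∈ Eof M
  tor : L2Tor M t T
  inn : L2In M t T
  /-- `C_F(s) = A₀` for every reflection `s` in the layer -/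
  cent_refl : ∀ s ∈ Eof M, Refl t s → Fo t ⊓ Cen s = A0 t M
  A_eq : Fo t ⊓ M = A0 t M ⊔ (Fo t ⊓ T)
  norm_eq : normalizer (A0 t M : Set G) = M
  ti : ∀ g, g ∉ M → A0 t M ⊓ H69.cj g (A0 t M) = ⊥
  ex_norm : ∃ h ∈ Cen t, h ∈ normalizer ((Fo t ⊓ M : Subgroup G) : Set G) ∧ h ∉ M
  cyc : IsCyclic (A0 t M)
  dvd : Nat.card (A0 t M) ∣ Nat.card ↥(Fo t ⊓ T)

/-- The subgroups `Y ≤ A₀`, `Z ≤ A₁` of prime order `r`. -/
structure YZ (t : G) (M T : Subgroup G) (r : ℕ) (Y Z : Subgroup G) : Prop where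
  prime : r.Prime
  Y_le : Y ≤ A0 t M
  Z_le : Z ≤ Fo t ⊓ T
  cardY : Nat.card Y = r
  cardZ : Nat.card Z = r

/-- The number `η₀ - 1` of conjugates `≠ Y` of `Y` under `N_H(Y Z)`. -/
noncomputable def nNbr (t : G) (Y Z : Subgroup G) : ℕ :=
  {Y' | Y' ≠ Y ∧ ∃ h ∈ Cen t, h ∈ normalizer ((Y ⊔ Z : Subgroup G) : Set G) ∧ Y' = H69.cj h Y}.ncard

/-- The first-case condition for the reflection `s`. -/
def FC (t s : G) : Prop := ∀ y ∈ Fo t, y ≠ 1 → s * y = y * s → Cen y ≤ Cen t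

end Cfsg.Agent.H7.GW
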